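import Cfsg.Agent.Foote.Inv
import Cfsg.Agent.Foote.Bridge
import Cfsg.Agent.KFacts.MM.Main
set_option linter.all false

/-!
# Strongly closed 2-subgroups of `M22` and `M23` (helper868)

The proof of helper29 (`Foote.Row.MM` in `ClosedRed.Inst`), with a smaller import closure.
-/

set_option autoImplicit false

namespace Cfsg.Agent.H868.ClosedMM

open Subgroup Cfsg Cfsg.Agent.Foote

theorem cr_of_mm {K : Type*} [Group K] [Finite K] {SK V W : Subgroup K} {z c : K}
    (h : OddHalf.MM.Sheet SK V W z c) : CR K := by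
  have hSyl : ∃ S : Sylow 2 K, (S : Subgroup K) = SK :=
    ⟨⟨SK, h.two, fun hP hle => h.max _ hP hle⟩, rfl⟩
  obtain ⟨S, hS⟩ := hSyl
  refine cr_of_inv ?_ S ?_
  · intro x y hx hx1 hy hy1
    obtain ⟨a, ha⟩ := h.inv x hx hx1
    obtain ⟨b, hb⟩ := h.inv y hy hy1
    exact ⟨b * a⁻¹, by rw [ha, hb]; group⟩
  · intro A hA s hs
    have hs' : s ∈ SK := by rw [← hS]; exact hs
    have hm : ∀ x ∈ SK, x * x = 1 → x ∈ A := fun x hx => hA x (by
      have : x ∈ (S : Subgroup K) := by rw [hS]; exact hx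
      exact this)
    obtain ⟨v, hv, w, hw, hsv⟩ := h.gen s hs'
    have h1 : v ∈ A := hm v (h.VS hv) (h.elV v hv)
    have h2 : w ∈ A := hm w (h.WS hw) (h.elW w hw)
    have h3 : c ∈ A := hm c h.cS h.cc
    rcases hsv with rfl | rfl
    · exact mul_mem h1 h2
    · exact mul_mem (mul_mem h1 h2) h3

theorem closed22 (S : Sylow 2 Spor.M22) (A : Subgroup Spor.M22)
    (hA : IsStronglyClosed A (S : Subgroup Spor.M22)) : A = ⊥ ∨ A = (S : Subgroup Spor.M22) := by
  obtain ⟨SK, V, W, z, c, h⟩ := KFacts.MM.Main.sheet22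
  exact (cr_of_mm h).closedRow S A hA

theorem closed23 (S : Sylow 2 Spor.M23) (A : Subgroup Spor.M23)
    (hA : IsStronglyClosed A (S : Subgroup Spor.M23)) : A = ⊥ ∨ A = (S : Subgroup Spor.M23) := by
  obtain ⟨SK, V, W, z, c, h⟩ := KFacts.MM.Main.sheet23
  exact (cr_of_mm h).closedRow S A hA

end Cfsg.Agent.H868.ClosedMM
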