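import Cfsg.Agent.H868.SextetTools
set_option linter.all false

/-!
# Counting sextets with a tetrad containing a given set
-/

set_option autoImplicit false

namespace Cfsg.Agent.H868.SextetCount

open Cfsg
open scoped Pointwise
open Cfsg.Agent.SporadicStructure.Sextet (sextetOf mem_sextetOf self_mem_sextetOf)
open Cfsg.Agent.SporadicStructure.SextetAction
open Cfsg.Agent.SporadicStructure

theorem card_univ_golay : (Finset.univ : Finset GolayPt).card = 24 := by
  rw [Finset.card_univ]
  exact Sextet.card_golayPt

theorem tetrad_eq {S : Finset (Finset GolayPt)} (hS : S ∈ sextets) {t u : Finset GolayPt}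
    (ht : t ∈ S) (hu : u ∈ S) {p : GolayPt} (hp : p ∈ t) (hp' : p ∈ u) : t = u := by
  by_contra h
  exact Finset.disjoint_left.1 (Sextet.disjoint_of_mem hS ht hu h) hp hp'

/-- The number of `k`-sets containing `u`. -/
theorem card_supersets (u : Finset GolayPt) (k : ℕ) (hk : u.card ≤ k) :
    ((Finset.powersetCard k (Finset.univ : Finset GolayPt)).filter fun t => u ⊆ t).card =
      (24 - u.card).choose (k - u.card) := by
  classical
  have h1 : (Finset.powersetCard k (Finset.univ : Finset GolayPt)).filter (fun t => u ⊆ t) =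
      (Finset.powersetCard (k - u.card) (Finset.univ \ u)).image fun s => u ∪ s := by
    ext t
    simp only [Finset.mem_filter, Finset.mem_powersetCard, Finset.subset_univ, true_and,
      Finset.mem_image]
    constructor
    · rintro ⟨h1, h2⟩
      refine ⟨t \ u, ⟨Finset.sdiff_subset_sdiff (Finset.subset_univ _) (Finset.Subset.refl _), ?_⟩,
        Finset.union_sdiff_of_subset h2⟩
      rw [Finset.card_sdiff_of_subset h2, h1]
    · rintro ⟨s, ⟨h1, h2⟩, rfl⟩
      have hd : Disjoint u s := by
        rw [Finset.disjoint_left]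
        intro x hx hx'
        exact (Finset.mem_sdiff.1 (h1 hx')).2 hx
      refine ⟨?_, Finset.subset_union_left⟩
      rw [Finset.card_union_of_disjoint hd, h2]
      omega
  rw [h1, Finset.card_image_of_injOn, Finset.card_powersetCard,
    Finset.card_sdiff_of_subset (Finset.subset_univ _), card_univ_golay]
  intro s hs s' hs' h
  have hs1 := (Finset.mem_powersetCard.1 (Finset.mem_coe.1 hs)).1
  have hs1' := (Finset.mem_powersetCard.1 (Finset.mem_coe.1 hs')).1
  have key : ∀ {s : Finset GolayPt}, s ⊆ Finset.univ \ u → (u ∪ s) \ u = s := by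
    intro s hs
    ext x
    simp only [Finset.mem_sdiff, Finset.mem_union]
    constructor
    · rintro ⟨h1 | h1, h2⟩
      · exact absurd h1 h2
      · exact h1
    · intro h1
      exact ⟨Or.inr h1, (Finset.mem_sdiff.1 (hs h1)).2⟩
  have h' : u ∪ s = u ∪ s' := h
  rw [← key hs1, ← key hs1', h']

/-- The number of sextets with a tetrad satisfying `P`, when at most one tetrad of a sextet satisfies
`P`. -/
theorem ncard_of_unique (P : Finset GolayPt → Prop) [DecidablePred P]
    (hP : ∀ S ∈ sextets, ∀ t ∈ S, ∀ u ∈ S, P t → P u → t = u) :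
    {S : Finset (Finset GolayPt) | S ∈ sextets ∧ ∃ t ∈ S, P t}.ncard =
      ((Finset.powersetCard 4 (Finset.univ : Finset GolayPt)).filter P).card := by
  classical
  have h1 : {S : Finset (Finset GolayPt) | S ∈ sextets ∧ ∃ t ∈ S, P t} =
      ((((Finset.powersetCard 4 (Finset.univ : Finset GolayPt)).filter P).image sextetOf :
        Finset (Finset (Finset GolayPt))) : Set (Finset (Finset GolayPt))) := by
    ext S
    rw [Finset.coe_image, Set.mem_image, Set.mem_setOf_eq]
    constructor
    · rintro ⟨hS, t, ht, hPt⟩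
      refine ⟨t, ?_, (eq_sextetOf hS ht).symm⟩
      rw [Finset.mem_coe, Finset.mem_filter, Finset.mem_powersetCard]
      exact ⟨⟨Finset.subset_univ _, hS.2.1 t ht⟩, hPt⟩
    · rintro ⟨t, ht, rfl⟩
      rw [Finset.mem_coe, Finset.mem_filter, Finset.mem_powersetCard] at ht
      exact ⟨sextetOf_mem ht.1.2, t, self_mem_sextetOf t, ht.2⟩
  rw [h1, Set.ncard_coe_finset, Finset.card_image_of_injOn]
  intro t ht t' ht' h
  rw [Finset.mem_coe, Finset.mem_filter, Finset.mem_powersetCard] at ht ht'
  have h2 : sextetOf t = sextetOf t' := h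
  exact hP _ (sextetOf_mem ht.1.2) t (self_mem_sextetOf t) t' (h2 ▸ self_mem_sextetOf t') ht.2 ht'.2

theorem ncard_containing (u : Finset GolayPt) (hu : u.Nonempty) (hk : u.card ≤ 4) :
    {S : Finset (Finset GolayPt) | S ∈ sextets ∧ ∃ t ∈ S, u ⊆ t}.ncard =
      (24 - u.card).choose (4 - u.card) := by
  classical
  obtain ⟨x, hx⟩ := hu
  rw [ncard_of_unique (fun t => u ⊆ t), card_supersets u 4 hk]
  intro S hS t ht t' ht' h h'
  exact tetrad_eq hS ht ht' (h hx) (h' hx)

end Cfsg.Agent.H868.SextetCount
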